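import Cfsg.Agent.Lib.FusionSimple.Basic
import Cfsg.Agent.Lib.Golay.M24
import Cfsg.Agent.Lib.SolvStruct.Fit

/-!
# Kernel certificates for simple `2`-fusion systems of subgroups of the group of the code

A `2`-subgroup `R pc` of the group of the code is given by a polycyclic generating sequence `pc`;
`prodL pc` lists its elements.  A chain of conjugations shows that every non-trivial subgroup closed
under conjugation into `R pc` is everything, and a pruned search over base images shows that
`R pc` is self-normalizing.
-/

set_option autoImplicit false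

namespace Cfsg.Agent.Lib.FusionSimple.Cert

open Cfsg Cfsg.Agent.Lib.Golay.Core Cfsg.Agent.Lib.Golay.Perm Cfsg.Agent.Lib.Golay.Chain
  Cfsg.Agent.Lib.Golay.M24

/-! ### Normal codes -/

/-- The code of the identity. -/
def idC : ℕ := pack (fun i => i) 24

theorem idC_valid : validPerm idC = true := by decide +kernel

theorem img_idC : ∀ i < 24, img idC i = i := by decide +kernel

theorem g_idC : g idC = 1 := by
  ext p
  rw [g_apply idC_valid, img_idC _ (idx_lt p), pt_idx]
  rfl

theorem pack_congr {f h : ℕ → ℕ} {k : ℕ} (H : ∀ i < k, f i = h i) : pack f k = pack h k := by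
  induction k with
  | zero => rfl
  | succ k ih =>
    rw [pack_succ, pack_succ, ih (fun i hi => H i (Nat.lt_succ_of_lt hi)), H k (Nat.lt_succ_self k)]

/-- `P` is the canonical code of its function. -/
def IsNorm (P : ℕ) : Prop := pack (img P) 24 = P

theorem isNorm_comp (P Q : ℕ) : IsNorm (comp P Q) := by
  show pack (img (comp P Q)) 24 = pack (fun i => img P (img Q i)) 24
  exact pack_congr (fun i hi => img_comp P Q hi)

theorem isNorm_idC : IsNorm idC := by
  show pack (img idC) 24 = idC
  exact pack_congr img_idC

theorem g_inj {P Q : ℕ} (hP : validPerm P = true) (hQ : validPerm Q = true) (nP : IsNorm P)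
    (nQ : IsNorm Q) (h : g P = g Q) : P = Q := by
  have key : ∀ i < 24, img P i = img Q i := by
    intro i hi
    have h1 : g P (pt i) = g Q (pt i) := by rw [h]
    rw [g_pt hP hi, g_pt hQ hi] at h1
    exact pt_injOn (valid_img_lt hP hi) (valid_img_lt hQ hi) h1
  rw [← nP, ← nQ]
  exact pack_congr key

/-! ### Lists -/

/-- Membership. -/
def memC (x : ℕ) (l : List ℕ) : Bool := List.rec false (fun h _ ih => cond (Nat.beq h x) true ih) l

theorem memC_cons (x h : ℕ) (t : List ℕ) : memC x (h :: t) = cond (Nat.beq h x) true (memC x t) := rfl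

theorem memC_iff {x : ℕ} {l : List ℕ} : memC x l = true ↔ x ∈ l := by
  induction l with
  | nil => simp [memC]
  | cons h t ih =>
    rw [memC_cons]
    by_cases hh : h = x
    · subst hh
      simp
    · have : Nat.beq h x = false := by
        cases h1 : Nat.beq h x with
        | false => rfl
        | true => exact absurd (Nat.eq_of_beq_eq_true h1) hh
      rw [this, cond_false, ih, List.mem_cons]
      constructor
      · exact Or.inr
      · rintro (h' | h')
        · exact absurd h'.symm hh
        · exact h'

/-- Filter. -/
def filterC (p : ℕ → Bool) (l : List ℕ) : List ℕ :=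
  List.rec [] (fun h _ ih => cond (p h) (h :: ih) ih) l

theorem filterC_eq (p : ℕ → Bool) (l : List ℕ) : filterC p l = l.filter p := by
  induction l with
  | nil => rfl
  | cons h t ih =>
    show cond (p h) (h :: filterC p t) (filterC p t) = _
    rw [ih, List.filter_cons]
    cases p h <;> rfl

/-- Pointwise commutation test. -/
def comm (x a : ℕ) : Bool := allUpTo (fun i => Nat.beq (img x (img a i)) (img a (img x i))) 24

theorem comm_spec {x a : ℕ} (hx : validPerm x = true) (ha : validPerm a = true) :
    comm x a = true ↔ g x * g a = g a * g x := by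
  unfold comm
  rw [allUpTo_iff]
  constructor
  · intro h
    refine Equiv.ext fun p => ?_
    have h1 := Nat.eq_of_beq_eq_true (h _ (idx_lt p))
    have e1 : (g x * g a) p = pt (img x (img a (idx p))) := by
      rw [Equiv.Perm.mul_apply, g_apply ha, g_pt hx (valid_img_lt ha (idx_lt p))]
    have e2 : (g a * g x) p = pt (img a (img x (idx p))) := by
      rw [Equiv.Perm.mul_apply, g_apply hx, g_pt ha (valid_img_lt hx (idx_lt p))]
    rw [e1, e2, h1]
  · intro h i hi
    have h1 : (g x * g a) (pt i) = (g a * g x) (pt i) := by rw [h]
    rw [Equiv.Perm.mul_apply, Equiv.Perm.mul_apply, g_pt ha hi, g_pt hx hi,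
      g_pt hx (valid_img_lt ha hi), g_pt ha (valid_img_lt hx hi)] at h1
    rw [pt_injOn (valid_img_lt hx (valid_img_lt ha hi)) (valid_img_lt ha (valid_img_lt hx hi)) h1]
    exact Nat.beq_refl _

/-- A candidate inverse. -/
def findI (P j : ℕ) : ℕ := Nat.rec 0 (fun i ih => cond (Nat.beq (img P i) j) i ih) 24

/-- A candidate for the inverse of `P`. -/
def invC (P : ℕ) : ℕ := pack (findI P) 24

/-- All products `a₁^e₁ ⋯ a_k^e_k`, `eᵢ ∈ {0, 1}`. -/
def prodL (pc : List ℕ) : List ℕ :=
  List.rec [idC] (fun a _ ih => ih ++ ih.map (comp a)) pc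

theorem prodL_nil : prodL [] = [idC] := rfl

theorem prodL_cons (a : ℕ) (l : List ℕ) :
    prodL (a :: l) = prodL l ++ (prodL l).map (comp a) := rfl

/-- The check on a polycyclic generating sequence. -/
def pcOK (pc : List ℕ) : Bool :=
  List.rec true (fun a l ih =>
    cond (checkAut a) (cond (Nat.beq (pack (img a) 24) a)
      (cond (validPerm (invC a)) (cond (Nat.beq (comp a (invC a)) idC)
        (cond (memC a (prodL l)) false
          (cond (memC (comp a a) (prodL l))
            (cond (allL (fun b => memC (comp (comp a b) (invC a)) (prodL l)) l) ih false) false))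
        false) false) false) false) pc

theorem pcOK_cons {a : ℕ} {l : List ℕ} (h : pcOK (a :: l) = true) :
    checkAut a = true ∧ pack (img a) 24 = a ∧ validPerm (invC a) = true ∧ comp a (invC a) = idC ∧
      memC a (prodL l) = false ∧ memC (comp a a) (prodL l) = true ∧
      (∀ b ∈ l, comp (comp a b) (invC a) ∈ prodL l) ∧ pcOK l = true := by
  change cond (checkAut a) (cond (Nat.beq (pack (img a) 24) a)
      (cond (validPerm (invC a)) (cond (Nat.beq (comp a (invC a)) idC)
        (cond (memC a (prodL l)) false
          (cond (memC (comp a a) (prodL l))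
            (cond (allL (fun b => memC (comp (comp a b) (invC a)) (prodL l)) l) (pcOK l) false) false))
        false) false) false) false = true at h
  cases h1 : checkAut a <;> simp only [h1, cond_false, cond_true, Bool.false_eq_true] at h
  cases h2 : Nat.beq (pack (img a) 24) a <;> simp only [h2, cond_false, cond_true, Bool.false_eq_true] at h
  cases h3 : validPerm (invC a) <;> simp only [h3, cond_false, cond_true, Bool.false_eq_true] at h
  cases h4 : Nat.beq (comp a (invC a)) idC <;> simp only [h4, cond_false, cond_true, Bool.false_eq_true] at h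
  cases h5 : memC a (prodL l) <;> simp only [h5, cond_false, cond_true, Bool.false_eq_true] at h
  cases h6 : memC (comp a a) (prodL l) <;> simp only [h6, cond_false, cond_true, Bool.false_eq_true] at h
  cases h7 : allL (fun b => memC (comp (comp a b) (invC a)) (prodL l)) l <;>
    simp only [h7, cond_false, cond_true, Bool.false_eq_true] at h
  refine ⟨rfl, Nat.eq_of_beq_eq_true h2, rfl, Nat.eq_of_beq_eq_true h4, rfl, rfl, ?_, h⟩
  intro b hb
  exact memC_iff.1 (allL_iff.1 h7 b hb)

/-- The group generated by the sequence. -/
noncomputable def R (pc : List ℕ) : Subgroup (Equiv.Perm GolayPt) :=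
  Subgroup.closure (g '' {a | a ∈ pc})

theorem prodL_valid {pc : List ℕ} (h : pcOK pc = true) : ∀ x ∈ prodL pc, validPerm x = true := by
  induction pc with
  | nil =>
    intro x hx
    rw [prodL_nil, List.mem_singleton] at hx
    rw [hx]
    exact idC_valid
  | cons a l ih =>
    obtain ⟨h1, -, -, -, -, -, -, h8⟩ := pcOK_cons h
    intro x hx
    rw [prodL_cons, List.mem_append, List.mem_map] at hx
    rcases hx with hx | ⟨y, hy, rfl⟩
    · exact ih h8 x hx
    · exact valid_comp (checkAut_valid h1) (ih h8 y hy)

theorem prodL_norm (pc : List ℕ) : ∀ x ∈ prodL pc, IsNorm x := by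
  induction pc with
  | nil =>
    intro x hx
    rw [prodL_nil, List.mem_singleton] at hx
    rw [hx]
    exact isNorm_idC
  | cons a l ih =>
    intro x hx
    rw [prodL_cons, List.mem_append, List.mem_map] at hx
    rcases hx with hx | ⟨y, hy, rfl⟩
    · exact ih x hx
    · exact isNorm_comp _ _

/-- Membership in the group generated by a sequence and the list of its elements. -/
theorem mem_R {pc : List ℕ} (h : pcOK pc = true) (γ : Equiv.Perm GolayPt) :
    γ ∈ R pc ↔ ∃ x ∈ prodL pc, g x = γ := by
  induction pc generalizing γ with
  | nil =>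
    have hb : R [] = ⊥ := by
      simp [R]
    rw [hb, Subgroup.mem_bot]
    constructor
    · rintro rfl
      exact ⟨idC, by simp [prodL_nil], g_idC⟩
    · rintro ⟨x, hx, rfl⟩
      rw [prodL_nil, List.mem_singleton] at hx
      rw [hx, g_idC]
  | cons a l ih =>
    obtain ⟨h1, h2, h3, h4, h5, h6, h7, h8⟩ := pcOK_cons h
    have ih' := ih h8
    have va : validPerm a = true := checkAut_valid h1
    set U := g a with hU
    have hinv : g (invC a) = U⁻¹ := by
      have : U * g (invC a) = 1 := by
        rw [hU, ← g_comp va h3, h4, g_idC]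
      exact (eq_inv_of_mul_eq_one_right this)
    -- `U` normalizes `R l`
    have hn1 : ∀ r ∈ R l, U * r * U⁻¹ ∈ R l := by
      intro r hr
      induction hr using Subgroup.closure_induction with
      | mem r hr =>
        obtain ⟨b, hb, rfl⟩ := hr
        rw [ih']
        refine ⟨_, h7 b hb, ?_⟩
        have vl := prodL_valid h8 _ (h7 b hb)
        have vb : validPerm b = true := by
          -- the generators are valid
          have := (ih' (g b))
          by_contra hne
          have h9 : checkAut b = true := by
            clear this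
            have aux : ∀ (l : List ℕ), pcOK l = true → ∀ b ∈ l, checkAut b = true := by
              intro l
              induction l with
              | nil => simp
              | cons c t ih2 =>
                intro hc b hb
                obtain ⟨c1, -, -, -, -, -, -, c8⟩ := pcOK_cons hc
                rcases List.mem_cons.1 hb with rfl | hb
                · exact c1
                · exact ih2 c8 b hb
            exact aux l h8 b hb
          exact hne (checkAut_valid h9)
        rw [g_comp (valid_comp va vb) h3, g_comp va vb, hinv]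
      | one => simp
      | mul x y _ _ hx hy =>
        have : U * (x * y) * U⁻¹ = (U * x * U⁻¹) * (U * y * U⁻¹) := by group
        rw [this]
        exact (R l).mul_mem hx hy
      | inv x _ hx =>
        have : U * x⁻¹ * U⁻¹ = (U * x * U⁻¹)⁻¹ := by group
        rw [this]
        exact (R l).inv_mem hx
    have hsq : U * U ∈ R l := by
      rw [ih']
      refine ⟨_, memC_iff.1 h6, ?_⟩
      rw [g_comp va va]
    have hn2 : ∀ r ∈ R l, U⁻¹ * r * U ∈ R l := by
      intro r hr
      have e : U⁻¹ * r * U = (U * U)⁻¹ * (U * r * U⁻¹) * (U * U) := by group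
      rw [e]
      exact (R l).mul_mem ((R l).mul_mem ((R l).inv_mem hsq) (hn1 r hr)) hsq
    -- description of the bigger group
    have hR : ∀ γ, γ ∈ R (a :: l) ↔ γ ∈ R l ∨ U⁻¹ * γ ∈ R l := by
      intro γ
      let A : Subgroup (Equiv.Perm GolayPt) :=
        { carrier := {γ | γ ∈ R l ∨ U⁻¹ * γ ∈ R l}
          one_mem' := Or.inl (R l).one_mem
          mul_mem' := by
            rintro x y (hx | hx) (hy | hy)
            · exact Or.inl ((R l).mul_mem hx hy)
            · right
              have e : U⁻¹ * (x * y) = (U⁻¹ * x * U) * (U⁻¹ * y) := by group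
              rw [e]
              exact (R l).mul_mem (hn2 x hx) hy
            · right
              have e : U⁻¹ * (x * y) = (U⁻¹ * x) * y := by group
              rw [e]
              exact (R l).mul_mem hx hy
            · left
              have e : x * y = (U * U) * (U⁻¹ * (U⁻¹ * x) * U) * (U⁻¹ * y) := by group
              rw [e]
              exact (R l).mul_mem ((R l).mul_mem hsq (hn2 _ hx)) hy
          inv_mem' := by
            rintro x (hx | hx)
            · exact Or.inl ((R l).inv_mem hx)
            · right
              have e : U⁻¹ * x⁻¹ = (U⁻¹ * (U⁻¹ * x)⁻¹ * U) * (U * U)⁻¹ := by group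
              rw [e]
              exact (R l).mul_mem (hn2 _ ((R l).inv_mem hx)) ((R l).inv_mem hsq) }
      have hle1 : R (a :: l) ≤ A := by
        rw [R, Subgroup.closure_le]
        rintro _ ⟨b, hb, rfl⟩
        rcases List.mem_cons.1 hb with rfl | hb
        · right
          show U⁻¹ * g b ∈ R l
          rw [show g b = U from rfl, inv_mul_cancel]
          exact (R l).one_mem
        · left
          exact Subgroup.subset_closure ⟨b, hb, rfl⟩
      have hle2 : R l ≤ R (a :: l) := by
        apply Subgroup.closure_mono
        rintro _ ⟨b, hb, rfl⟩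
        exact ⟨b, List.mem_cons_of_mem _ hb, rfl⟩
      have hUm : U ∈ R (a :: l) := Subgroup.subset_closure ⟨a, List.mem_cons_self, rfl⟩
      constructor
      · intro hγ
        exact hle1 hγ
      · rintro (hγ | hγ)
        · exact hle2 hγ
        · have := (R (a :: l)).mul_mem hUm (hle2 hγ)
          rwa [mul_inv_cancel_left] at this
    rw [hR, prodL_cons]
    constructor
    · rintro (hγ | hγ)
      · obtain ⟨x, hx, rfl⟩ := (ih' γ).1 hγ
        exact ⟨x, List.mem_append_left _ hx, rfl⟩
      · obtain ⟨x, hx, hxg⟩ := (ih' _).1 hγ
        refine ⟨comp a x, List.mem_append_right _ (List.mem_map.2 ⟨x, hx, rfl⟩), ?_⟩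
        rw [g_comp va (prodL_valid h8 x hx), hxg, ← hU, mul_inv_cancel_left]
    · rintro ⟨x, hx, rfl⟩
      rcases List.mem_append.1 hx with hx | hx
      · exact Or.inl ((ih' _).2 ⟨x, hx, rfl⟩)
      · obtain ⟨y, hy, rfl⟩ := List.mem_map.1 hx
        right
        rw [g_comp va (prodL_valid h8 y hy), ← hU, inv_mul_cancel_left]
        exact (ih' _).2 ⟨y, hy, rfl⟩

theorem gen_checkAut {l : List ℕ} (h : pcOK l = true) : ∀ b ∈ l, checkAut b = true := by
  induction l with
  | nil => simp
  | cons c t ih2 =>
    intro b hb
    obtain ⟨c1, -, -, -, -, -, -, c8⟩ := pcOK_cons h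
    rcases List.mem_cons.1 hb with rfl | hb
    · exact c1
    · exact ih2 c8 b hb

theorem prodL_nodup {pc : List ℕ} (h : pcOK pc = true) : (prodL pc).Nodup := by
  induction pc with
  | nil => simp [prodL_nil]
  | cons a l ih =>
    obtain ⟨h1, h2, h3, h4, h5, h6, h7, h8⟩ := pcOK_cons h
    have va : validPerm a = true := checkAut_valid h1
    have hinj : ∀ x ∈ prodL l, ∀ y ∈ prodL l, comp a x = comp a y → x = y := by
      intro x hx y hy hxy
      have vx := prodL_valid h8 x hx
      have vy := prodL_valid h8 y hy
      apply g_inj vx vy (prodL_norm l x hx) (prodL_norm l y hy)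
      have := congrArg g hxy
      rw [g_comp va vx, g_comp va vy] at this
      exact mul_left_cancel this
    rw [prodL_cons, List.nodup_append]
    refine ⟨ih h8, ?_, ?_⟩
    · exact List.Nodup.map_on (fun x hx y hy hxy => hinj x hx y hy hxy) (ih h8)
    · intro x hx y hy hxy
      obtain ⟨w, hw, hwy⟩ := List.mem_map.1 hy
      have hxw : comp a w = x := hwy.trans hxy.symm
      -- then `a` would be in `R l`
      have vw := prodL_valid h8 _ hw
      have ha : g a = g x * (g w)⁻¹ := by
        rw [← hxw, g_comp va vw]
        simp
      have hmem : g a ∈ R l := by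
        rw [ha]
        exact (R l).mul_mem ((mem_R h8 _).2 ⟨_, hx, rfl⟩) ((R l).inv_mem ((mem_R h8 _).2 ⟨_, hw, rfl⟩))
      obtain ⟨r, hr, hrg⟩ := (mem_R h8 _).1 hmem
      have : r = a := g_inj (prodL_valid h8 r hr) va (prodL_norm l r hr) h2 hrg
      subst this
      have := memC_iff.2 hr
      rw [h5] at this
      exact Bool.noConfusion this

theorem length_prodL (pc : List ℕ) : (prodL pc).length = 2 ^ pc.length := by
  induction pc with
  | nil => rfl
  | cons a l ih =>
    rw [prodL_cons, List.length_append, List.length_map, ih, List.length_cons, pow_succ]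
    ring

theorem g_injOn_prodL {pc : List ℕ} (h : pcOK pc = true) : Set.InjOn g {x | x ∈ prodL pc} := by
  intro x hx y hy hxy
  exact g_inj (prodL_valid h x hx) (prodL_valid h y hy) (prodL_norm pc x hx) (prodL_norm pc y hy) hxy

theorem coe_R {pc : List ℕ} (h : pcOK pc = true) :
    (R pc : Set (Equiv.Perm GolayPt)) = g '' {x | x ∈ prodL pc} := by
  ext γ
  show γ ∈ R pc ↔ _
  rw [mem_R h]
  rfl

theorem card_R {pc : List ℕ} (h : pcOK pc = true) : Nat.card (R pc) = 2 ^ pc.length := by
  rw [← length_prodL, ← List.toFinset_card_of_nodup (prodL_nodup h)]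
  have h1 : Nat.card (R pc) = (R pc : Set (Equiv.Perm GolayPt)).ncard := Nat.card_coe_set_eq _
  rw [h1, coe_R h, Set.InjOn.ncard_image (g_injOn_prodL h)]
  rw [← Set.ncard_coe_finset]
  congr 1
  ext x
  simp

end Cfsg.Agent.Lib.FusionSimple.Cert
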