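import Cfsg.Agent.Lib.FusionSimple.Cert

/-!
# Strong closure certificates

A non-trivial subgroup `T` of `R pc` closed under conjugation into `R pc` contains the unique central
involution `g z`; a chain of conjugations and products, all recorded, then produces all generators.
-/

set_option autoImplicit false

namespace Cfsg.Agent.Lib.FusionSimple.Closure

open Cfsg Cfsg.Agent.Lib.Golay.Core Cfsg.Agent.Lib.Golay.Perm Cfsg.Agent.Lib.Golay.Chain
  Cfsg.Agent.Lib.Golay.M24 Cfsg.Agent.Lib.FusionSimple.Cert

/-- Nth entry. -/
def nthC (l : List ℕ) (i : ℕ) : ℕ := l.getD i 0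

/-- The chain of conjugations and products starting at `known`. -/
def chainOK (inM : ℕ → Bool) (L pc : List ℕ) : List (ℕ × ℕ × ℕ) → List ℕ → Bool
  | [], known => allL (fun a => memC a known) pc
  | (i, c, j) :: rest, known =>
    cond (memC (nthC known i) known)
      (cond (Nat.beq c 0)
        (cond (memC (nthC known j) known)
          (chainOK inM L pc rest (known ++ [comp (nthC known i) (nthC known j)])) false)
        (cond (checkAut c) (cond (inM c) (cond (validPerm j) (cond (Nat.beq (comp c j) idC)
          (cond (memC (comp (comp c (nthC known i)) j) L)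
            (chainOK inM L pc rest (known ++ [comp (comp c (nthC known i)) j])) false)
          false) false) false) false))
      false

theorem g_inv_of_comp {c j : ℕ} (vc : validPerm c = true) (vj : validPerm j = true)
    (h : comp c j = idC) : g j = (g c)⁻¹ := by
  have : g c * g j = 1 := by rw [← g_comp vc vj, h, g_idC]
  exact eq_inv_of_mul_eq_one_right this

theorem chain_sound {M T : Subgroup (Equiv.Perm GolayPt)} {inM : ℕ → Bool} {L pc : List ℕ}
    (hM2 : ∀ c, checkAut c = true → inM c = true → g c ∈ M)
    (hcl : ∀ y ∈ L, ∀ x ∈ T, ∀ γ ∈ M, g y = γ * x * γ⁻¹ → g y ∈ T) :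
    ∀ (steps : List (ℕ × ℕ × ℕ)) (known : List ℕ), chainOK inM L pc steps known = true →
      (∀ k ∈ known, validPerm k = true ∧ g k ∈ T) → ∀ a ∈ pc, g a ∈ T := by
  intro steps
  induction steps with
  | nil =>
    intro known h hk a ha
    exact (hk a (memC_iff.1 (allL_iff.1 h a ha))).2
  | cons st rest ih =>
    obtain ⟨i, c, j⟩ := st
    intro known h hk
    change cond (memC (nthC known i) known)
      (cond (Nat.beq c 0)
        (cond (memC (nthC known j) known)
          (chainOK inM L pc rest (known ++ [comp (nthC known i) (nthC known j)])) false)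
        (cond (checkAut c) (cond (inM c) (cond (validPerm j) (cond (Nat.beq (comp c j) idC)
          (cond (memC (comp (comp c (nthC known i)) j) L)
            (chainOK inM L pc rest (known ++ [comp (comp c (nthC known i)) j])) false)
          false) false) false) false))
      false = true at h
    cases h1 : memC (nthC known i) known <;> simp only [h1, cond_false, cond_true, Bool.false_eq_true] at h
    have hx := hk _ (memC_iff.1 h1)
    cases h2 : Nat.beq c 0 <;> simp only [h2, cond_false, cond_true] at h
    · cases h3 : checkAut c <;> simp only [h3, cond_false, cond_true, Bool.false_eq_true] at h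
      cases h4 : inM c <;> simp only [h4, cond_false, cond_true, Bool.false_eq_true] at h
      cases h5 : validPerm j <;> simp only [h5, cond_false, cond_true, Bool.false_eq_true] at h
      cases h6 : Nat.beq (comp c j) idC <;> simp only [h6, cond_false, cond_true, Bool.false_eq_true] at h
      cases h7 : memC (comp (comp c (nthC known i)) j) L <;>
        simp only [h7, cond_false, cond_true, Bool.false_eq_true] at h
      have vc := checkAut_valid h3
      refine ih _ h ?_
      intro k hk'
      rcases List.mem_append.1 hk' with hk' | hk'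
      · exact hk k hk'
      · have hk2 : k = comp (comp c (nthC known i)) j := by simpa using hk'
        have hg : g (comp (comp c (nthC known i)) j) = g c * g (nthC known i) * (g c)⁻¹ := by
          rw [g_comp (valid_comp vc hx.1) h5, g_comp vc hx.1,
            g_inv_of_comp vc h5 (Nat.eq_of_beq_eq_true h6)]
        rw [hk2]
        exact ⟨valid_comp (valid_comp vc hx.1) h5,
          hcl _ (memC_iff.1 h7) _ hx.2 _ (hM2 c h3 h4) hg⟩
    · cases h3 : memC (nthC known j) known <;>
        simp only [h3, cond_false, cond_true, Bool.false_eq_true] at h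
      have hw := hk _ (memC_iff.1 h3)
      refine ih _ h ?_
      intro k hk'
      rcases List.mem_append.1 hk' with hk' | hk'
      · exact hk k hk'
      · have hk2 : k = comp (nthC known i) (nthC known j) := by simpa using hk'
        rw [hk2]
        refine ⟨valid_comp hx.1 hw.1, ?_⟩
        rw [g_comp hx.1 hw.1]
        exact T.mul_mem hx.2 hw.2

/-- The check that `g z` is the only non-trivial central element. -/
def centerOK (L pc : List ℕ) (z : ℕ) : Bool :=
  cond (memC z L) (cond (allL (comm z) pc) (cond (Nat.beq z idC) false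
    (allL (fun x => cond (allL (comm x) pc) (cond (Nat.beq x idC) true (Nat.beq x z)) true) L))
      false) false

theorem centerOK_spec {L pc : List ℕ} {z : ℕ} (h : centerOK L pc z = true) :
    z ∈ L ∧ (∀ a ∈ pc, comm z a = true) ∧ z ≠ idC ∧
      ∀ x ∈ L, (∀ a ∈ pc, comm x a = true) → x = idC ∨ x = z := by
  change cond (memC z L) (cond (allL (comm z) pc) (cond (Nat.beq z idC) false
    (allL (fun x => cond (allL (comm x) pc) (cond (Nat.beq x idC) true (Nat.beq x z)) true) L))
      false) false = true at h
  cases h1 : memC z L <;> simp only [h1, cond_false, cond_true, Bool.false_eq_true] at h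
  cases h2 : allL (comm z) pc <;> simp only [h2, cond_false, cond_true, Bool.false_eq_true] at h
  cases h3 : Nat.beq z idC <;> simp only [h3, cond_false, cond_true, Bool.false_eq_true] at h
  refine ⟨memC_iff.1 h1, fun a ha => allL_iff.1 h2 a ha, ?_, ?_⟩
  · intro hz
    rw [hz] at h3
    rw [Nat.beq_refl] at h3
    exact Bool.noConfusion h3
  · intro x hx hc
    have h4 := allL_iff.1 h x hx
    have h5 : allL (comm x) pc = true := allL_iff.2 hc
    rw [h5, cond_true] at h4
    cases h6 : Nat.beq x idC
    · rw [h6, cond_false] at h4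
      exact Or.inr (Nat.eq_of_beq_eq_true h4)
    · exact Or.inl (Nat.eq_of_beq_eq_true h6)

/-- An element commuting with the generators commutes with the group. -/
theorem comm_R {pc : List ℕ} (h : pcOK pc = true) {x : ℕ} (vx : validPerm x = true)
    (hc : ∀ a ∈ pc, comm x a = true) : ∀ r ∈ R pc, g x * r = r * g x := by
  intro r hr
  induction hr using Subgroup.closure_induction with
  | mem r hr =>
    obtain ⟨a, ha, rfl⟩ := hr
    exact (comm_spec vx (checkAut_valid (gen_checkAut h a ha))).1 (hc a ha)
  | one => simp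
  | mul a b _ _ ha hb =>
    rw [← mul_assoc, ha, mul_assoc, hb, mul_assoc]
  | inv a _ ha =>
    exact Commute.inv_right ha

theorem gen_mem_R {pc : List ℕ} {a : ℕ} (ha : a ∈ pc) : g a ∈ R pc :=
  Subgroup.subset_closure ⟨a, ha, rfl⟩

/-- The group `R pc` is nilpotent. -/
theorem isPGroup_R {pc : List ℕ} (h : pcOK pc = true) : IsPGroup 2 (R pc) :=
  IsPGroup.of_card (card_R h)

theorem finite_R {pc : List ℕ} : Finite (R pc) := inferInstance

/-- A non-trivial subgroup normalized by `R pc` contains the central involution. -/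
theorem z_mem {pc L : List ℕ} {z : ℕ} (hpc : pcOK pc = true) (hL : L = prodL pc)
    (hc : centerOK L pc z = true) {T : Subgroup (Equiv.Perm GolayPt)} (hT : T ≤ R pc) (hne : T ≠ ⊥)
    (hn : ∀ x ∈ T, ∀ r ∈ R pc, r * x * r⁻¹ ∈ T) : g z ∈ T := by
  subst hL
  obtain ⟨-, -, -, hz4⟩ := centerOK_spec hc
  have : Fact (Nat.Prime 2) := ⟨Nat.prime_two⟩
  have : Finite (R pc) := finite_R
  have : Group.IsNilpotent (R pc) := (isPGroup_R hpc).isNilpotent
  let N : Subgroup (R pc) := T.subgroupOf (R pc)
  have hNn : N.Normal := by
    constructor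
    intro x hx r
    rw [Subgroup.mem_subgroupOf] at hx ⊢
    exact hn _ hx _ r.2
  have hNne : N ≠ ⊥ := by
    intro h
    apply hne
    rw [eq_bot_iff]
    intro x hx
    have h1 : (⟨x, hT hx⟩ : R pc) ∈ N := by
      rw [Subgroup.mem_subgroupOf]
      exact hx
    rw [h, Subgroup.mem_bot] at h1
    rw [Subgroup.mem_bot]
    exact congrArg Subtype.val h1
  have hZ := Cfsg.Agent.Lib.SolvStruct.Fit.inf_center_ne_bot N hNne
  rw [Ne, Subgroup.eq_bot_iff_forall] at hZ
  push Not at hZ
  obtain ⟨y, ⟨hyN, hyc⟩, hy1⟩ := hZ
  obtain ⟨x, hx, hxy⟩ := (mem_R hpc _).1 y.2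
  have vx := prodL_valid hpc x hx
  have hxc : ∀ a ∈ pc, comm x a = true := by
    intro a ha
    rw [comm_spec vx (checkAut_valid (gen_checkAut hpc a ha)), hxy]
    have := (Subgroup.mem_center_iff.1 hyc) ⟨g a, gen_mem_R ha⟩
    exact (congrArg Subtype.val this).symm
  have hyT : (y : Equiv.Perm GolayPt) ∈ T := hyN
  rcases hz4 x hx hxc with rfl | rfl
  · exfalso
    apply hy1
    apply Subtype.ext
    rw [← hxy, g_idC]
    rfl
  · rwa [hxy]

/-- The closure theorem. -/
theorem closed_eq {M : Subgroup (Equiv.Perm GolayPt)} {inM : ℕ → Bool}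
    (hM2 : ∀ c, checkAut c = true → inM c = true → g c ∈ M) {pc L : List ℕ} {z : ℕ}
    {steps : List (ℕ × ℕ × ℕ)} (hpc : pcOK pc = true) (hL : L = prodL pc) (hRM : R pc ≤ M)
    (hc : centerOK L pc z = true) (hch : chainOK inM L pc steps [z] = true)
    (T : Subgroup (Equiv.Perm GolayPt)) (hT : T ≤ R pc) (hne : T ≠ ⊥)
    (hcl : ∀ x ∈ T, ∀ γ ∈ M, γ * x * γ⁻¹ ∈ R pc → γ * x * γ⁻¹ ∈ T) : T = R pc := by
  have hz : g z ∈ T := z_mem hpc hL hc hT hne (by
    intro x hx r hr
    exact hcl x hx r (hRM hr) ((R pc).mul_mem ((R pc).mul_mem hr (hT hx)) ((R pc).inv_mem hr)))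
  have hzL : z ∈ L := (centerOK_spec hc).1
  have vz : validPerm z = true := by
    subst hL
    exact prodL_valid hpc z hzL
  have hgens : ∀ a ∈ pc, g a ∈ T := by
    refine chain_sound (M := M) hM2 ?_ steps [z] hch ?_
    · intro y hy x hx γ hγ hg
      have hyR : g y ∈ R pc := by
        subst hL
        exact (mem_R hpc _).2 ⟨y, hy, rfl⟩
      rw [hg] at hyR ⊢
      exact hcl x hx γ hγ hyR
    · intro k hk
      rw [List.mem_singleton] at hk
      rw [hk]
      exact ⟨vz, hz⟩
  apply le_antisymm hT
  rw [R, Subgroup.closure_le]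
  rintro _ ⟨a, ha, rfl⟩
  exact hgens a ha

end Cfsg.Agent.Lib.FusionSimple.Closure
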