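import Cfsg.Agent.Lib.FusionSimple.Norm

/-!
# Simple `2`-fusion systems from kernel certificates
-/

set_option autoImplicit false

namespace Cfsg.Agent.Lib.FusionSimple.Main

open Cfsg Cfsg.Agent.Lib.Golay.Core Cfsg.Agent.Lib.Golay.Perm Cfsg.Agent.Lib.Golay.Chain
  Cfsg.Agent.Lib.Golay.M24 Cfsg.Agent.Lib.FusionSimple.Cert Cfsg.Agent.Lib.FusionSimple.Closure
  Cfsg.Agent.Lib.FusionSimple.Norm

theorem main {M : Subgroup (Equiv.Perm GolayPt)} {inM : ℕ → Bool} (hM24 : M ≤ M24)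
    (hM1 : ∀ c, validPerm c = true → g c ∈ M → inM c = true)
    (hM2 : ∀ c, checkAut c = true → inM c = true → g c ∈ M)
    {pc L B T0 H : List ℕ} {z σ : ℕ} {steps : List (ℕ × ℕ × ℕ)}
    (hpc : pcOK pc = true) (hL : L = prodL pc) (hpcM : allL inM pc = true)
    (hc : centerOK L pc z = true) (hch : chainOK inM L pc steps [z] = true)
    (hT : tree B L L [] T0 = true) (hT0 : allL checkAut T0 = true)
    (hf : fixOK B H σ = true) (hσ : B.map (img σ) = [3, 2, 1, 0, 23]) (hnd : H.Nodup)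
    (hcand : allL (fun τ => allL (fun h => cand inM L pc z τ h) H) T0 = true)
    {m : ℕ} (hcard : Nat.card M = 2 ^ pc.length * m) (hm : Odd m)
    (S : Sylow 2 M) : (groupFusionSystem (S : Subgroup M)).IsSimple 2 := by
  have hRM : R pc ≤ M := by
    rw [R, Subgroup.closure_le]
    rintro _ ⟨a, ha, rfl⟩
    exact hM2 a (gen_checkAut hpc a ha) (allL_iff.1 hpcM a ha)
  have hne : R pc ≠ ⊥ := by
    intro h
    obtain ⟨hz1, -, hz3, -⟩ := centerOK_spec hc
    subst hL
    have h1 : g z ∈ R pc := (mem_R hpc _).2 ⟨z, hz1, rfl⟩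
    rw [h, Subgroup.mem_bot] at h1
    apply hz3
    apply g_inj (prodL_valid hpc z hz1) idC_valid (prodL_norm pc z hz1) isNorm_idC
    rw [h1, g_idC]
  exact Cfsg.Agent.Lib.FusionSimple.Basic.simple_of_ambient M (R pc) hRM (card_R hpc) hcard hm hne
    (fun γ hγ hn => self_norm hM24 hM1 hpc hL hc hT hT0 hf hσ hnd hcand hγ hn)
    (fun T hT hne hcl => closed_eq hM2 hpc hL hRM hc hch T hT hne hcl) S

end Cfsg.Agent.Lib.FusionSimple.Main
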