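import Cfsg.Agent.Lib.FusionSimple.Closure

/-!
# Self-normalizing certificates

An element `γ` normalizing `R pc` preserves the numbers of elements of `R pc` fixing given points.
A search over base images then restricts `γ` to an explicit list of candidates.
-/

set_option autoImplicit false

namespace Cfsg.Agent.Lib.FusionSimple.Norm

open Cfsg Cfsg.Agent.Lib.Golay.Core Cfsg.Agent.Lib.Golay.Perm Cfsg.Agent.Lib.Golay.Chain
  Cfsg.Agent.Lib.Golay.M24 Cfsg.Agent.Lib.FusionSimple.Cert Cfsg.Agent.Lib.FusionSimple.Closure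

/-- Does `s` fix `p`? -/
def fp (p s : ℕ) : Bool := Nat.beq (img s p) p

/-- Length. -/
def lenC (l : List ℕ) : ℕ := List.rec 0 (fun _ _ ih => Nat.add 1 ih) l

theorem lenC_eq (l : List ℕ) : lenC l = l.length := by
  induction l with
  | nil => rfl
  | cons h t ih =>
    show Nat.add 1 (lenC t) = _
    rw [ih, List.length_cons]
    show 1 + t.length = _
    omega

/-- The elements of `L` fixing the points in `A`. -/
def sel (L : List ℕ) : List ℕ → List ℕ
  | [] => L
  | a :: A => filterC (fp a) (sel L A)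

theorem mem_sel {L : List ℕ} {A : List ℕ} {x : ℕ} :
    x ∈ sel L A ↔ x ∈ L ∧ ∀ a ∈ A, img x a = a := by
  induction A with
  | nil => simp [sel]
  | cons a A ih =>
    rw [sel, filterC_eq, List.mem_filter, ih]
    simp only [List.mem_cons, forall_eq_or_imp, fp]
    constructor
    · rintro ⟨⟨h1, h2⟩, h3⟩
      exact ⟨h1, Nat.eq_of_beq_eq_true h3, h2⟩
    · rintro ⟨h1, h3, h2⟩
      refine ⟨⟨h1, h2⟩, ?_⟩
      rw [h3]
      exact Nat.beq_refl _

theorem nodup_sel {L : List ℕ} (hL : L.Nodup) (A : List ℕ) : (sel L A).Nodup := by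
  induction A with
  | nil => exact hL
  | cons a A ih =>
    rw [sel, filterC_eq]
    exact ih.filter _

/-- Elements of `R pc` fixing the points in `A`. -/
def Sfix (pc A : List ℕ) : Set (Equiv.Perm GolayPt) :=
  {s | s ∈ R pc ∧ ∀ a ∈ A, s (pt a) = pt a}

theorem Sfix_eq {pc A : List ℕ} (hpc : pcOK pc = true) (hA : ∀ a ∈ A, a < 24) :
    Sfix pc A = g '' {x | x ∈ sel (prodL pc) A} := by
  ext s
  constructor
  · rintro ⟨hs, hf⟩
    obtain ⟨x, hx, rfl⟩ := (mem_R hpc s).1 hs
    refine ⟨x, mem_sel.2 ⟨hx, fun a ha => ?_⟩, rfl⟩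
    have vx := prodL_valid hpc x hx
    have h1 := hf a ha
    rw [g_pt vx (hA a ha)] at h1
    exact pt_injOn (valid_img_lt vx (hA a ha)) (hA a ha) h1
  · rintro ⟨x, hx, rfl⟩
    obtain ⟨h1, h2⟩ := mem_sel.1 hx
    refine ⟨(mem_R hpc _).2 ⟨x, h1, rfl⟩, fun a ha => ?_⟩
    rw [g_pt (prodL_valid hpc x h1) (hA a ha), h2 a ha]

theorem ncard_Sfix {pc A : List ℕ} (hpc : pcOK pc = true) (hA : ∀ a ∈ A, a < 24) :
    (Sfix pc A).ncard = (sel (prodL pc) A).length := by
  rw [Sfix_eq hpc hA, Set.InjOn.ncard_image]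
  · rw [← List.toFinset_card_of_nodup (nodup_sel (prodL_nodup hpc) A), ← Set.ncard_coe_finset]
    congr 1
    ext x
    simp
  · intro x hx y hy hxy
    exact g_injOn_prodL hpc (mem_sel.1 hx).1 (mem_sel.1 hy).1 hxy

/-- An element normalizing `R pc`: the inverse also normalizes. -/
theorem normalizes_inv {pc : List ℕ} {γ : Equiv.Perm GolayPt}
    (hn : ∀ s ∈ R pc, γ * s * γ⁻¹ ∈ R pc) : ∀ s ∈ R pc, γ⁻¹ * s * γ ∈ R pc := by
  have : Finite (R pc) := finite_R
  let f : R pc → R pc := fun s => ⟨γ * s.1 * γ⁻¹, hn s.1 s.2⟩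
  have hf : Function.Injective f := by
    intro a b hab
    have h1 : γ * a.1 * γ⁻¹ = γ * b.1 * γ⁻¹ := congrArg Subtype.val hab
    apply Subtype.ext
    simpa using h1
  have hs := Finite.injective_iff_surjective.mp hf
  intro s hs'
  obtain ⟨t, ht⟩ := hs ⟨s, hs'⟩
  have h1 : γ * t.1 * γ⁻¹ = s := congrArg Subtype.val ht
  have h2 : γ⁻¹ * s * γ = t.1 := by
    rw [← h1]
    group
  rw [h2]
  exact t.2

/-- The numbering of the image of a point. -/
noncomputable def im (γ : Equiv.Perm GolayPt) (i : ℕ) : ℕ := idx (γ (pt i))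

theorem pt_im (γ : Equiv.Perm GolayPt) (i : ℕ) : pt (im γ i) = γ (pt i) := pt_idx _

theorem im_lt (γ : Equiv.Perm GolayPt) (i : ℕ) : im γ i < 24 := idx_lt _

theorem count_eq {pc : List ℕ} (hpc : pcOK pc = true) {γ : Equiv.Perm GolayPt}
    (hn : ∀ s ∈ R pc, γ * s * γ⁻¹ ∈ R pc) {A : List ℕ} (hA : ∀ a ∈ A, a < 24) :
    (sel (prodL pc) A).length = (sel (prodL pc) (A.map (im γ))).length := by
  have hA' : ∀ a ∈ A.map (im γ), a < 24 := by
    intro a ha
    obtain ⟨b, -, rfl⟩ := List.mem_map.1 ha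
    exact im_lt γ b
  rw [← ncard_Sfix hpc hA, ← ncard_Sfix hpc hA']
  have hinj : Function.Injective (fun s : Equiv.Perm GolayPt => γ * s * γ⁻¹) := by
    intro a b hab
    simpa using hab
  have himg : (fun s : Equiv.Perm GolayPt => γ * s * γ⁻¹) '' Sfix pc A = Sfix pc (A.map (im γ)) := by
    ext u
    constructor
    · rintro ⟨s, ⟨hs, hf⟩, rfl⟩
      refine ⟨hn s hs, fun a ha => ?_⟩
      obtain ⟨b, hb, rfl⟩ := List.mem_map.1 ha
      rw [pt_im]
      simp [hf b hb]
    · rintro ⟨hu, hf⟩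
      refine ⟨γ⁻¹ * u * γ, ⟨normalizes_inv hn u hu, fun a ha => ?_⟩, by group⟩
      have h1 := hf (im γ a) (List.mem_map.2 ⟨a, ha, rfl⟩)
      rw [pt_im] at h1
      simp [h1]
  rw [← himg, Set.ncard_image_of_injective _ hinj]

/-- The search over base images. -/
def tree (B : List ℕ) : List ℕ → List ℕ → List ℕ → List ℕ → Bool :=
  List.rec (fun _ _ _ Ts => List.rec false (fun _ _ _ => true) Ts)
    (fun b _ ih KB Kw w Ts =>
      allUpTo (fun p =>
        cond (memC p w) true
          (cond (Nat.beq (lenC (filterC (fp p) Kw)) (lenC (filterC (fp b) KB)))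
            (ih (filterC (fp b) KB) (filterC (fp p) Kw) (p :: w)
              (filterC (fun τ => Nat.beq (img τ b) p) Ts)) true)) 24) B

theorem tree_sound {L : List ℕ} {γ' : ℕ → ℕ} (hγ' : ∀ i, γ' i < 24)
    (hinj : ∀ a b, a < 24 → b < 24 → γ' a = γ' b → a = b)
    (hcount : ∀ A : List ℕ, (∀ a ∈ A, a < 24) → (sel L A).length = (sel L (A.map γ')).length) :
    ∀ (B A Ts : List ℕ), (∀ b ∈ B, b < 24) → (∀ a ∈ A, a < 24) → (B ++ A).Nodup →
      tree B (sel L A) (sel L (A.map γ')) (A.map γ') Ts = true →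
        ∃ τ ∈ Ts, ∀ b ∈ B, img τ b = γ' b := by
  intro B
  induction B with
  | nil =>
    intro A Ts _ _ _ h
    cases Ts with
    | nil => exact Bool.noConfusion h
    | cons t ts => exact ⟨t, List.mem_cons_self, by simp⟩
  | cons b B ih =>
    intro A Ts hB hA hnd h
    have hb : b < 24 := hB b List.mem_cons_self
    have hB' : ∀ b ∈ B, b < 24 := fun x hx => hB x (List.mem_cons_of_mem _ hx)
    change allUpTo (fun p =>
        cond (memC p (A.map γ')) true
        (cond (Nat.beq (lenC (filterC (fp p) (sel L (A.map γ')))) (lenC (filterC (fp b) (sel L A))))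
          (tree B (filterC (fp b) (sel L A)) (filterC (fp p) (sel L (A.map γ'))) (p :: A.map γ')
            (filterC (fun τ => Nat.beq (img τ b) p) Ts)) true)) 24 = true at h
    have h1 := allUpTo_iff.1 h (γ' b) (hγ' b)
    have hbA : b ∉ A := by
      intro hbA
      have := List.nodup_append.1 hnd
      exact this.2.2 b List.mem_cons_self b hbA rfl
    have h0 : memC (γ' b) (A.map γ') = false := by
      cases h00 : memC (γ' b) (A.map γ') with
      | false => rfl
      | true =>
        obtain ⟨a, ha, hab⟩ := List.mem_map.1 (memC_iff.1 h00)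
        exact absurd (hinj a b (hA a ha) hb hab ▸ ha) hbA
    have h2 : Nat.beq (lenC (filterC (fp (γ' b)) (sel L (A.map γ')))) (lenC (filterC (fp b) (sel L A)))
        = true := by
      have h3 := hcount (b :: A) (by
        intro a ha
        rcases List.mem_cons.1 ha with rfl | ha
        · exact hb
        · exact hA a ha)
      rw [lenC_eq, lenC_eq]
      have h4 : (filterC (fp (γ' b)) (sel L (A.map γ'))).length = (filterC (fp b) (sel L A)).length :=
        h3.symm
      rw [h4]
      exact Nat.beq_refl _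
    simp only [h0, cond_false] at h1
    rw [h2, cond_true] at h1
    obtain ⟨τ, hτ, hτB⟩ := ih (b :: A) _ hB' (by
      intro a ha
      rcases List.mem_cons.1 ha with rfl | ha
      · exact hb
      · exact hA a ha) (by
        exact (List.perm_middle (l₁ := B) (l₂ := A) (a := b)).nodup_iff.2 hnd) h1
    rw [filterC_eq, List.mem_filter] at hτ
    refine ⟨τ, hτ.1, ?_⟩
    intro x hx
    rcases List.mem_cons.1 hx with rfl | hx
    · exact Nat.eq_of_beq_eq_true hτ.2
    · exact hτB x hx

/-- The check on the point stabilizer. -/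
def fixOK (B H : List ℕ) (σ : ℕ) : Bool :=
  cond (checkAut σ) (cond (allL (fun b => Nat.ble b 23) B)
    (cond (Nat.beq (lenC H) 48)
      (allL (fun h => cond (checkAut h) (cond (Nat.beq (pack (img h) 24) h)
        (allL (fun b => fp b h) B) false) false) H) false) false) false

theorem fix_list {B H : List ℕ} {σ : ℕ} (hf : fixOK B H σ = true) (hσ : B.map (img σ) = [3, 2, 1, 0, 23])
    (hnd : H.Nodup) {γ : Equiv.Perm GolayPt} (hγ : γ ∈ M24) (hfix : ∀ b ∈ B, γ (pt b) = pt b) :
    ∃ h ∈ H, checkAut h = true ∧ g h = γ := by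
  change cond (checkAut σ) (cond (allL (fun b => Nat.ble b 23) B)
    (cond (Nat.beq (lenC H) 48)
      (allL (fun h => cond (checkAut h) (cond (Nat.beq (pack (img h) 24) h)
        (allL (fun b => fp b h) B) false) false) H) false) false) false = true at hf
  cases h1 : checkAut σ <;> simp only [h1, cond_false, cond_true, Bool.false_eq_true] at hf
  cases h2 : allL (fun b => Nat.ble b 23) B <;> simp only [h2, cond_false, cond_true, Bool.false_eq_true] at hf
  cases h3 : Nat.beq (lenC H) 48 <;> simp only [h3, cond_false, cond_true, Bool.false_eq_true] at hf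
  have hB : ∀ b ∈ B, b < 24 := fun b hb => Nat.lt_succ_of_le (Nat.le_of_ble_eq_true (allL_iff.1 h2 b hb))
  have hlen : H.length = 48 := by
    rw [← lenC_eq]
    exact Nat.eq_of_beq_eq_true h3
  have hsp : ∀ h ∈ H, checkAut h = true ∧ IsNorm h ∧ ∀ b ∈ B, img h b = b := by
    intro h hh
    have h4 := allL_iff.1 hf h hh
    cases h5 : checkAut h <;> simp only [h5, cond_false, cond_true, Bool.false_eq_true] at h4
    cases h6 : Nat.beq (pack (img h) 24) h <;> simp only [h6, cond_false, cond_true, Bool.false_eq_true] at h4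
    refine ⟨rfl, Nat.eq_of_beq_eq_true h6, fun b hb => ?_⟩
    exact Nat.eq_of_beq_eq_true (allL_iff.1 h4 b hb)
  have vσ := checkAut_valid h1
  -- the stabilizer of the base has at most 48 elements
  let FB : Set (Equiv.Perm GolayPt) := {s | s ∈ M24 ∧ ∀ b ∈ B, s (pt b) = pt b}
  have hcardFB : FB.ncard ≤ 48 := by
    have hc : (Fix [3, 2, 1, 0, 23] : Set (Equiv.Perm GolayPt)).ncard = 48 := by
      rw [← Nat.card_coe_set_eq]
      exact card_F5
    rw [← hc]
    apply Set.ncard_le_ncard_of_injOn (fun s => g σ * s * (g σ)⁻¹) _ _ (Set.toFinite _)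
    · rintro s ⟨hs, hsf⟩
      refine ⟨M24.mul_mem (M24.mul_mem (g_mem_M24 h1) hs) (M24.inv_mem (g_mem_M24 h1)), ?_⟩
      intro x hx
      rw [← hσ] at hx
      obtain ⟨b, hb, rfl⟩ := List.mem_map.1 hx
      have e : (g σ)⁻¹ (pt (img σ b)) = pt b := by
        rw [Equiv.Perm.inv_eq_iff_eq, g_pt vσ (hB b hb)]
      simp only [Equiv.Perm.mul_apply, e, hsf b hb]
      exact g_pt vσ (hB b hb)
    · intro a _ b _ hab
      simpa using hab
  -- the list covers it
  have hsub : g '' {h | h ∈ H} ⊆ FB := by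
    rintro _ ⟨h, hh, rfl⟩
    obtain ⟨h4, -, h6⟩ := hsp h hh
    refine ⟨g_mem_M24 h4, fun b hb => ?_⟩
    rw [g_pt (checkAut_valid h4) (hB b hb), h6 b hb]
  have hinj : Set.InjOn g {h | h ∈ H} := by
    intro x hx y hy hxy
    obtain ⟨x1, x2, -⟩ := hsp x hx
    obtain ⟨y1, y2, -⟩ := hsp y hy
    exact g_inj (checkAut_valid x1) (checkAut_valid y1) x2 y2 hxy
  have hcardH : (g '' {h | h ∈ H}).ncard = 48 := by
    rw [Set.InjOn.ncard_image hinj, ← hlen, ← List.toFinset_card_of_nodup hnd, ← Set.ncard_coe_finset]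
    congr 1
    ext x
    simp
  have heq : g '' {h | h ∈ H} = FB :=
    Set.eq_of_subset_of_ncard_le hsub (by rw [hcardH]; exact hcardFB) (Set.toFinite _)
  have hγF : γ ∈ FB := ⟨hγ, hfix⟩
  rw [← heq] at hγF
  obtain ⟨h, hh, rfl⟩ := hγF
  exact ⟨h, hh, (hsp h hh).1, rfl⟩

/-- Pointwise commutation of a product with `z`. -/
def zcomm (z τ h : ℕ) : Bool :=
  allUpTo (fun i => Nat.beq (img τ (img h (img z i))) (img z (img τ (img h i)))) 24

theorem zcomm_of_comm {z τ h : ℕ} (vz : validPerm z = true) (vτ : validPerm τ = true)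
    (vh : validPerm h = true) (hc : g (comp τ h) * g z = g z * g (comp τ h)) : zcomm z τ h = true := by
  unfold zcomm
  rw [allUpTo_iff]
  intro i hi
  have h1 : (g τ * g h * g z) (pt i) = (g z * (g τ * g h)) (pt i) := by
    rw [← g_comp vτ vh, hc]
  simp only [Equiv.Perm.mul_apply] at h1
  rw [g_pt vz hi, g_pt vh (valid_img_lt vz hi), g_pt vτ (valid_img_lt vh (valid_img_lt vz hi)),
    g_pt vh hi, g_pt vτ (valid_img_lt vh hi), g_pt vz (valid_img_lt vτ (valid_img_lt vh hi))] at h1
  rw [pt_injOn (valid_img_lt vτ (valid_img_lt vh (valid_img_lt vz hi)))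
    (valid_img_lt vz (valid_img_lt vτ (valid_img_lt vh hi))) h1]
  exact Nat.beq_refl _

/-- `c` visibly does not normalize. -/
def nonNorm (L pc : List ℕ) (c : ℕ) : Bool :=
  cond (validPerm (invC c)) (cond (Nat.beq (comp c (invC c)) idC)
    (cond (allL (fun a => memC (comp (comp c a) (invC c)) L) pc) false true) false) false

/-- The test of a candidate `τ h`. -/
def cand (inM : ℕ → Bool) (L pc : List ℕ) (z τ h : ℕ) : Bool :=
  cond (zcomm z τ h)
    (cond (inM (comp τ h)) (cond (memC (comp τ h) L) true (nonNorm L pc (comp τ h))) true) true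

/-- The image of the central involution. -/
theorem comm_z {pc L : List ℕ} {z : ℕ} (hpc : pcOK pc = true) (hL : L = prodL pc)
    (hc : centerOK L pc z = true) {γ : Equiv.Perm GolayPt} (hn : ∀ s ∈ R pc, γ * s * γ⁻¹ ∈ R pc) :
    γ * g z = g z * γ := by
  subst hL
  obtain ⟨hz1, hz2, hz3, hz4⟩ := centerOK_spec hc
  have vz := prodL_valid hpc z hz1
  have hzR : g z ∈ R pc := (mem_R hpc _).2 ⟨z, hz1, rfl⟩
  have hzc := comm_R hpc vz hz2
  obtain ⟨x, hx, hxg⟩ := (mem_R hpc _).1 (hn _ hzR)
  have vx := prodL_valid hpc x hx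
  have hxc : ∀ a ∈ pc, comm x a = true := by
    intro a ha
    have va := checkAut_valid (gen_checkAut hpc a ha)
    rw [comm_spec vx va, hxg]
    have h1 : γ⁻¹ * g a * γ ∈ R pc := normalizes_inv hn _ (gen_mem_R ha)
    have h2 := hzc _ h1
    have e1 : γ * g z * γ⁻¹ * g a = γ * (g z * (γ⁻¹ * g a * γ)) * γ⁻¹ := by group
    have e2 : g a * (γ * g z * γ⁻¹) = γ * ((γ⁻¹ * g a * γ) * g z) * γ⁻¹ := by group
    rw [e1, e2, h2]
  rcases hz4 x hx hxc with rfl | rfl
  · exfalso
    rw [g_idC] at hxg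
    have h1 : g z = 1 := by
      have : γ * g z = γ := by
        rw [eq_comm, mul_inv_eq_one] at hxg
        exact hxg
      exact mul_left_cancel (this.trans (mul_one γ).symm)
    apply hz3
    apply g_inj vz idC_valid (prodL_norm pc z hz1) isNorm_idC
    rw [h1, g_idC]
  · rw [eq_mul_inv_iff_mul_eq] at hxg
    exact hxg.symm

/-- The self-normalizing theorem. -/
theorem self_norm {M : Subgroup (Equiv.Perm GolayPt)} {inM : ℕ → Bool} (hM24 : M ≤ M24)
    (hM1 : ∀ c, validPerm c = true → g c ∈ M → inM c = true) {pc L B T0 H : List ℕ} {z σ : ℕ}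
    (hpc : pcOK pc = true) (hL : L = prodL pc) (hc : centerOK L pc z = true)
    (hT : tree B L L [] T0 = true) (hT0 : allL checkAut T0 = true)
    (hf : fixOK B H σ = true) (hσ : B.map (img σ) = [3, 2, 1, 0, 23]) (hnd : H.Nodup)
    (hcand : allL (fun τ => allL (fun h => cand inM L pc z τ h) H) T0 = true)
    {γ : Equiv.Perm GolayPt} (hγ : γ ∈ M) (hn : ∀ s ∈ R pc, γ * s * γ⁻¹ ∈ R pc) : γ ∈ R pc := by
  have hB : ∀ b ∈ B, b < 24 := by
    change cond (checkAut σ) (cond (allL (fun b => Nat.ble b 23) B) _ false) false = true at hf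
    cases h1 : checkAut σ <;> simp only [h1, cond_false, cond_true, Bool.false_eq_true] at hf
    cases h2 : allL (fun b => Nat.ble b 23) B <;>
      simp only [h2, cond_false, cond_true, Bool.false_eq_true] at hf
    exact fun b hb => Nat.lt_succ_of_le (Nat.le_of_ble_eq_true (allL_iff.1 h2 b hb))
  subst hL
  have hBnd : (B ++ []).Nodup := by
    rw [List.append_nil]
    have h1 : (B.map (img σ)).Nodup := by rw [hσ]; decide
    exact List.Nodup.of_map _ h1
  obtain ⟨τ, hτ, hτB⟩ := tree_sound (L := prodL pc) (γ' := im γ) (im_lt γ)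
    (fun a b ha hb hab => by
      have h1 : γ (pt a) = γ (pt b) := by rw [← pt_im, ← pt_im, hab]
      exact pt_injOn ha hb (γ.injective h1))
    (fun A hA => count_eq hpc hn hA) B [] T0 hB (by simp) hBnd hT
  have cτ : checkAut τ = true := allL_iff.1 hT0 τ hτ
  have vτ := checkAut_valid cτ
  have hγ24 := hM24 hγ
  obtain ⟨h, hh, ch, hgh⟩ := fix_list (γ := (g τ)⁻¹ * γ) hf hσ hnd
    (M24.mul_mem (M24.inv_mem (g_mem_M24 cτ)) hγ24) (by
      intro b hb
      have hb' := hB b hb
      rw [Equiv.Perm.mul_apply, Equiv.Perm.inv_eq_iff_eq, g_pt vτ hb', hτB b hb, pt_im])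
  have vh := checkAut_valid ch
  have hγe : γ = g (comp τ h) := by
    rw [g_comp vτ vh, hgh]
    group
  have vc := valid_comp vτ vh
  have hcd := allL_iff.1 (allL_iff.1 hcand τ hτ) h hh
  obtain ⟨hz1, -, -, -⟩ := centerOK_spec hc
  have vz := prodL_valid hpc z hz1
  have hzc := comm_z hpc rfl hc hn
  rw [hγe] at hzc
  have h1 := zcomm_of_comm vz vτ vh hzc
  have h2 := hM1 _ vc (hγe ▸ hγ)
  unfold cand at hcd
  rw [h1, cond_true, h2, cond_true] at hcd
  cases h3 : memC (comp τ h) (prodL pc)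
  · exfalso
    rw [h3, cond_false] at hcd
    unfold nonNorm at hcd
    cases h4 : validPerm (invC (comp τ h)) <;> simp only [h4, cond_false, cond_true, Bool.false_eq_true] at hcd
    cases h5 : Nat.beq (comp (comp τ h) (invC (comp τ h))) idC <;>
      simp only [h5, cond_false, cond_true, Bool.false_eq_true] at hcd
    cases h6 : allL (fun a => memC (comp (comp (comp τ h) a) (invC (comp τ h))) (prodL pc)) pc
    · have h7 : allL (fun a => memC (comp (comp (comp τ h) a) (invC (comp τ h))) (prodL pc)) pc = true := by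
        rw [allL_iff]
        intro a ha
        have va := checkAut_valid (gen_checkAut hpc a ha)
        have h8 : g (comp (comp (comp τ h) a) (invC (comp τ h))) ∈ R pc := by
          rw [g_comp (valid_comp vc va) h4, g_comp vc va,
            g_inv_of_comp vc h4 (Nat.eq_of_beq_eq_true h5), ← hγe]
          exact hn _ (gen_mem_R ha)
        obtain ⟨r, hr, hrg⟩ := (mem_R hpc _).1 h8
        have h9 : r = comp (comp (comp τ h) a) (invC (comp τ h)) :=
          g_inj (prodL_valid hpc r hr) (valid_comp (valid_comp vc va) h4) (prodL_norm pc r hr)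
            (isNorm_comp _ _) hrg
        rw [← h9]
        exact memC_iff.2 hr
      rw [h7] at h6
      exact Bool.noConfusion h6
    · simp [h6] at hcd
  · rw [hγe]
    exact (mem_R hpc _).2 ⟨_, memC_iff.1 h3, rfl⟩

end Cfsg.Agent.Lib.FusionSimple.Norm
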